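import Mathlib
import Cfsg.Agent.Lib.Contrib.D1Main
import Cfsg.Agent.Lib.Contrib.MajorEx
import Cfsg.Agent.Lib.Dade.Main
import Cfsg.Agent.Lib.BP.Nil4
import Cfsg.Agent.Lib.Star.Wat3

/-!
# Families for blocks with cyclic defect group

`A = S ∪ T` with `|S| = e`, the rank of `A`, and one relation on the regular elements:
`δ₀ ψ + ∑_S δ_χ χ = 0`.  The family is a cycle on `Fin (e + 1)`.
-/

set_option autoImplicit false
set_option linter.unusedSectionVars false
set_option linter.style.haveILetI false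

namespace Cfsg.Agent.Lib.AbR.Fam

open Cfsg MonoidAlgebra
open Cfsg.Agent.Lib.Blocks.Local Cfsg.Agent.Lib.Blocks.Central Cfsg.Agent.Lib.Blocks.Quot
open Cfsg.Agent.Lib.Blocks.DomRank
open Cfsg.Agent.Lib.BlockH.Regular Cfsg.Agent.Lib.BlockP.Defect
open Cfsg.Agent.Lib.Char.Ortho Cfsg.Agent.Lib.Char.Basic Cfsg.Agent.Lib.Char.GenLattice
open Cfsg.Agent.Lib.Contrib.Proj Cfsg.Agent.Lib.Contrib.Cyc Cfsg.Agent.Lib.Contrib.Family
open Cfsg.Agent.Lib.Contrib.Sec Cfsg.Agent.Lib.Contrib.Dom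
open Cfsg.Agent.Lib.Contrib.D1Main
open Cfsg.Agent.Lib.Char.Galois
open scoped ComplexConjugate

universe u

section Rel

variable {H : Type u} [Group H] [Fintype H] [Fintype (IrrCharacter H)] {p : ℕ} {M : Ideal AlgInt}
  [hp : Fact p.Prime] {A S T : Set (IrrCharacter H)} [Fintype S] [Fintype T]
  {δ : IrrCharacter H → ℤ} {δ₀ : ℤ}

theorem sq_cast {n : ℤ} (h : n = 1 ∨ n = -1) : (n : ℂ) * n = 1 := by
  rcases h with rfl | rfl <;> simp

theorem sum_union (hAST : A = S ∪ T) (hdis : Disjoint S T) [DecidablePred (· ∈ A)] (F : IrrCharacter H → ℂ) :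
    ∑ ξ, (if ξ ∈ A then F ξ else 0) = ∑ χ : S, F χ + ∑ ψ : T, F ψ := by
  classical
  rw [sum_subtype_eq (B := S) F, sum_subtype_eq (B := T) F, ← Finset.sum_add_distrib]
  refine Finset.sum_congr rfl fun ξ _ => ?_
  by_cases h1 : ξ ∈ S
  · have h2 : ξ ∉ T := Set.disjoint_left.mp hdis h1
    have h3 : ξ ∈ A := by rw [hAST]; exact Or.inl h1
    simp [h1, h2, h3]
  · by_cases h2 : ξ ∈ T
    · have h3 : ξ ∈ A := by rw [hAST]; exact Or.inr h2
      simp [h1, h2, h3]
    · have h3 : ξ ∉ A := by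
        rw [hAST]
        rintro (h | h)
        · exact h1 h
        · exact h2 h
      simp [h1, h2, h3]

theorem reg_rel (hδ₀ : δ₀ = 1 ∨ δ₀ = -1)
    (hrel : ∀ ψ ∈ T, ∀ c : H, ¬ p ∣ orderOf c → (δ₀ : ℂ) * (ψ : H → ℂ) c + ∑ χ : S, (δ χ : ℂ) * ((χ : IrrCharacter H) : H → ℂ) c = 0)
    {ψ : IrrCharacter H} (hψ : ψ ∈ T) (c : H) :
    pRegularPart p (ψ : H → ℂ) c = - (δ₀ : ℂ) * ∑ χ : S, (δ χ : ℂ) * pRegularPart p ((χ : IrrCharacter H) : H → ℂ) c := by
  classical
  by_cases hc : IsPRegular p c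
  · simp only [pRegularPart_apply, if_pos hc]
    have h1 := hrel ψ hψ c hc
    have h2 := sq_cast hδ₀
    have h3 : (ψ : H → ℂ) c = (δ₀ : ℂ) * δ₀ * (ψ : H → ℂ) c := by rw [h2, one_mul]
    rw [h3]
    linear_combination (δ₀ : ℂ) * h1
  · simp only [pRegularPart_apply, if_neg hc]
    simp

/-- The regular parts of the members of `S` are linearly independent. -/
theorem li_reg (hAST : A = S ∪ T) (hrank : blockRank p A = Fintype.card S) (hδ₀ : δ₀ = 1 ∨ δ₀ = -1)
    (hrel : ∀ ψ ∈ T, ∀ c : H, ¬ p ∣ orderOf c → (δ₀ : ℂ) * (ψ : H → ℂ) c + ∑ χ : S, (δ χ : ℂ) * ((χ : IrrCharacter H) : H → ℂ) c = 0) :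
    LinearIndependent ℂ (fun χ : S => pRegularPart p ((χ : IrrCharacter H) : H → ℂ)) := by
  classical
  rw [linearIndependent_iff_card_eq_finrank_span]
  apply le_antisymm _ (finrank_range_le_card _)
  rw [← hrank, blockRank, Set.finrank]
  haveI : Module.Finite ℂ (Submodule.span ℂ (Set.range fun χ : S => pRegularPart p ((χ : IrrCharacter H) : H → ℂ))) :=
    FiniteDimensional.span_of_finite ℂ (Set.finite_range _)
  apply Submodule.finrank_mono
  rw [Submodule.span_le]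
  rintro _ ⟨ξ, hξ, rfl⟩
  rw [hAST] at hξ
  rcases hξ with h | h
  · exact Submodule.subset_span ⟨⟨ξ, h⟩, rfl⟩
  · have h1 : pRegularPart p (ξ : H → ℂ) = (- (δ₀ : ℂ)) • ∑ χ : S, (δ χ : ℂ) • pRegularPart p ((χ : IrrCharacter H) : H → ℂ) := by
      funext c
      rw [reg_rel hδ₀ hrel h c]
      simp
    simp only [SetLike.mem_coe]
    rw [h1]
    exact Submodule.smul_mem _ _ (Submodule.sum_mem _ fun χ _ => Submodule.smul_mem _ _ (Submodule.subset_span ⟨χ, rfl⟩))

/-- The inner products of a function vanishing on the regular elements. -/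
theorem inner_rel (hM : IsPModular p M) (hA : IsPBlock M A) (hAST : A = S ∪ T) (hdis : Disjoint S T)
    (hrank : blockRank p A = Fintype.card S) (hδ₀ : δ₀ = 1 ∨ δ₀ = -1)
    (hrel : ∀ ψ ∈ T, ∀ c : H, ¬ p ∣ orderOf c → (δ₀ : ℂ) * (ψ : H → ℂ) c + ∑ χ : S, (δ χ : ℂ) * ((χ : IrrCharacter H) : H → ℂ) c = 0)
    {g : H → ℂ} (hg : ∀ c, ¬ p ∣ orderOf c → g c = 0) (χ : S) :
    classInner g ((χ : IrrCharacter H) : H → ℂ) = δ₀ * δ χ * ∑ ψ : T, classInner g ((ψ : IrrCharacter H) : H → ℂ) := by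
  classical
  have hLI := li_reg hAST hrank hδ₀ hrel
  have h0 : PP p A g = PP p A 0 := PP_congr hM hA fun y hy => by rw [hg y hy]; rfl
  have h1 : ∀ y, ∑ χ : S, classInner g ((χ : IrrCharacter H) : H → ℂ) * pRegularPart p ((χ : IrrCharacter H) : H → ℂ) y +
      ∑ ψ : T, classInner g ((ψ : IrrCharacter H) : H → ℂ) * pRegularPart p ((ψ : IrrCharacter H) : H → ℂ) y = 0 := by
    intro y
    have h2 := congrFun h0 y
    rw [PP_apply, sum_union hAST hdis (fun ξ => classInner g (ξ : H → ℂ) * pRegularPart p (ξ : H → ℂ) y), PP_apply] at h2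
    rw [h2]
    refine Finset.sum_eq_zero fun ξ _ => ?_
    split_ifs
    · have : classInner (0 : H → ℂ) (ξ : H → ℂ) = 0 := by simp [classInner_def]
      rw [this, zero_mul]
    · rfl
  set Y : ℂ := ∑ ψ : T, classInner g ((ψ : IrrCharacter H) : H → ℂ) with hY
  have h2 : ∑ χ : S, (classInner g ((χ : IrrCharacter H) : H → ℂ) - δ₀ * δ χ * Y) •
      pRegularPart p ((χ : IrrCharacter H) : H → ℂ) = 0 := by
    funext y
    have h3 := h1 y
    have h4 : ∑ ψ : T, classInner g ((ψ : IrrCharacter H) : H → ℂ) * pRegularPart p ((ψ : IrrCharacter H) : H → ℂ) y =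
        Y * (- (δ₀ : ℂ) * ∑ χ : S, (δ χ : ℂ) * pRegularPart p ((χ : IrrCharacter H) : H → ℂ) y) := by
      rw [hY, Finset.sum_mul]
      refine Finset.sum_congr rfl fun ψ _ => ?_
      rw [reg_rel hδ₀ hrel ψ.2 y]
    rw [h4] at h3
    simp only [Finset.sum_apply, Pi.smul_apply, smul_eq_mul, Pi.zero_apply]
    rw [← h3, Finset.mul_sum, Finset.mul_sum, ← Finset.sum_add_distrib]
    refine Finset.sum_congr rfl fun χ _ => ?_
    ring
  have h3 := Fintype.linearIndependent_iff.mp hLI _ h2 χ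
  exact sub_eq_zero.mp h3

/-- The vectors of the family vanish on the singular elements. -/
theorem Q_vanish (hM : IsPModular p M) (hA : IsPBlock M A) (hAST : A = S ∪ T) (hdis : Disjoint S T)
    (hrank : blockRank p A = Fintype.card S) (hδ₀ : δ₀ = 1 ∨ δ₀ = -1) (hδ : ∀ χ ∈ S, δ χ = 1 ∨ δ χ = -1)
    (hrel : ∀ ψ ∈ T, ∀ c : H, ¬ p ∣ orderOf c → (δ₀ : ℂ) * (ψ : H → ℂ) c + ∑ χ : S, (δ χ : ℂ) * ((χ : IrrCharacter H) : H → ℂ) c = 0)
    (χ : S) (c : H) (hc : p ∣ orderOf c) :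
    (δ χ : ℂ) * ((χ : IrrCharacter H) : H → ℂ) c = δ₀ * ∑ ψ : T, ((ψ : IrrCharacter H) : H → ℂ) c := by
  classical
  set f : H → ℂ := fun c => (δ χ : ℂ) * ((χ : IrrCharacter H) : H → ℂ) c - δ₀ * ∑ ψ : T, ((ψ : IrrCharacter H) : H → ℂ) c with hf
  set g : H → ℂ := fun c => if p ∣ orderOf c then f c else 0 with hg
  have hg0 : ∀ c, ¬ p ∣ orderOf c → g c = 0 := fun c hc => if_neg hc
  have h1 := inner_rel hM hA hAST hdis hrank hδ₀ hrel hg0 χ
  have h2 : classInner g f = 0 := by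
    have h3 : classInner g f = (δ χ : ℂ) * classInner g ((χ : IrrCharacter H) : H → ℂ) -
        (δ₀ : ℂ) * ∑ ψ : T, classInner g ((ψ : IrrCharacter H) : H → ℂ) := by
      simp only [classInner_def, hf, map_sub, map_mul, map_sum, map_intCast, mul_sub, Finset.sum_sub_distrib,
        Finset.mul_sum]
      congr 1
      · refine Finset.sum_congr rfl fun y _ => ?_
        ring
      · rw [Finset.sum_comm]
        refine Finset.sum_congr rfl fun ψ _ => ?_
        refine Finset.sum_congr rfl fun y _ => ?_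
        ring
    rw [h3, h1]
    have h4 := sq_cast (hδ χ χ.2)
    linear_combination (δ₀ : ℂ) * (∑ ψ : T, classInner g ((ψ : IrrCharacter H) : H → ℂ)) * h4
  have h3 : ∑ y, (g y) * conj (f y) = 0 := by
    rw [classInner_def] at h2
    have hcard : (Nat.card H : ℂ) ≠ 0 := by
      exact_mod_cast Nat.card_pos.ne'
    exact (mul_eq_zero.mp h2).resolve_left (inv_ne_zero hcard)
  have h4 : ∑ y, (‖g y‖ ^ 2 : ℝ) = 0 := by
    apply Complex.ofReal_injective
    push_cast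
    rw [← h3]
    refine Finset.sum_congr rfl fun y _ => ?_
    by_cases hy : p ∣ orderOf y
    · simp only [hg, if_pos hy]
      rw [Complex.mul_conj, Complex.normSq_eq_norm_sq]
      push_cast
      rfl
    · simp [hg, if_neg hy]
  have h5 := (Finset.sum_eq_zero_iff_of_nonneg (fun y _ => by positivity)).mp h4 c (Finset.mem_univ _)
  have h6 : g c = 0 := by simpa using h5
  have h7 : f c = 0 := by
    simp only [hg, if_pos hc] at h6
    exact h6
  exact sub_eq_zero.mp h7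

/-- A function vanishing on the singular elements is orthogonal to functions vanishing on the regular elements. -/
theorem inner_eq_zero_of_supp {f g : H → ℂ} (hf : ∀ c, p ∣ orderOf c → f c = 0) (hg : ∀ c, ¬ p ∣ orderOf c → g c = 0) :
    classInner f g = 0 := by
  rw [classInner_def]
  rw [Finset.sum_eq_zero, mul_zero]
  intro y _
  by_cases hy : p ∣ orderOf y
  · rw [hf y hy, zero_mul]
  · rw [hg y hy]
    simp

theorem inner_irr_left {A : Set (IrrCharacter H)} [Fintype A] (u : A → ℂ) (ξ : A) :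
    classInner (Phi u) ((ξ : IrrCharacter H) : H → ℂ) = u ξ := by
  classical
  have h1 : Phi u = fun y => ∑ ψ : A, u ψ * ((ψ : IrrCharacter H) : H → ℂ) y := rfl
  rw [h1, classInner_linear, Finset.sum_eq_single ξ]
  · rw [classInner_self_of_isIrr ξ.1.2, mul_one]
  · intro ψ _ hψ
    rw [classInner_eq_zero_of_isIrr_of_ne ψ.1.2 ξ.1.2 (fun h => hψ (Subtype.ext (Subtype.ext h))), mul_zero]
  · simp

end Rel

section Cycle

theorem two_le_card_of_ne {e : ℕ} (τ : Fin (e + 1) → ℂ) (h : ∃ j, τ j ≠ τ 0) :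
    2 ≤ (Finset.univ.filter fun i : Fin (e + 1) => τ (i + 1) - τ i ≠ 0).card := by
  classical
  by_contra hcon
  have hle : (Finset.univ.filter fun i : Fin (e + 1) => τ (i + 1) - τ i ≠ 0).card ≤ 1 := by omega
  obtain ⟨j, hj⟩ := h
  have hsum : ∑ i : Fin (e + 1), (τ (i + 1) - τ i) = 0 := by
    rw [Finset.sum_sub_distrib, sub_eq_zero]
    exact Equiv.sum_comp (Equiv.addRight (1 : Fin (e + 1))) τ
  have h1 : ∀ i : Fin (e + 1), τ (i + 1) - τ i = 0 := by
    by_contra hne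
    push Not at hne
    obtain ⟨i₀, hi₀⟩ := hne
    have h2 : ∑ i : Fin (e + 1), (τ (i + 1) - τ i) = τ (i₀ + 1) - τ i₀ := by
      refine Finset.sum_eq_single i₀ (fun i _ hi => ?_) (by simp)
      by_contra hi'
      exact hi (Finset.card_le_one.mp hle i (by simp [hi']) i₀ (by simp [hi₀]))
    rw [h2] at hsum
    exact hi₀ hsum
  apply hj
  induction j using Fin.induction with
  | zero => rfl
  | succ a ih =>
    have h2 := h1 a.castSucc
    rw [Fin.coeSucc_eq_succ] at h2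
    have h3 : τ a.succ = τ a.castSucc := sub_eq_zero.mp h2
    rw [h3] at hj ⊢
    exact ih hj

end Cycle

section Family

variable {H : Type u} [Group H] [Fintype H] [Fintype (IrrCharacter H)] {p : ℕ} {M : Ideal AlgInt}
  [hp : Fact p.Prime] {A S T : Set (IrrCharacter H)} [Fintype A] [Fintype S] [Fintype T]
  {δ : IrrCharacter H → ℤ} {δ₀ : ℤ}

theorem nrm_int (r : ℕ) [NeZero r] (n : ℤ) : nrm r (n : ℂ) = (n : ℝ) ^ 2 := by
  have hc : (Fintype.card (Kn r →ₐ[ℚ] ℂ) : ℝ) ≠ 0 := by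
    exact_mod_cast (card_alg_pos r).ne'
  simp only [nrm, sig_intCast, Finset.sum_const, Finset.card_univ, nsmul_eq_mul, Complex.norm_intCast, sq_abs]
  field_simp

theorem mem_S (hAST : A = S ∪ T) {ξ : IrrCharacter H} (h : ξ ∈ S) : ξ ∈ A := by
  rw [hAST]
  exact Or.inl h

theorem mem_T (hAST : A = S ∪ T) {ξ : IrrCharacter H} (h : ξ ∈ T) : ξ ∈ A := by
  rw [hAST]
  exact Or.inr h

theorem sum_A (hAST : A = S ∪ T) (hdis : Disjoint S T) (F : A → ℂ) :
    ∑ ξ : A, F ξ = ∑ χ : S, F ⟨χ, mem_S hAST χ.2⟩ + ∑ ψ : T, F ⟨ψ, mem_T hAST ψ.2⟩ := by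
  classical
  set F' : IrrCharacter H → ℂ := fun ξ => if h : ξ ∈ A then F ⟨ξ, h⟩ else 0 with hF'
  have h1 : ∀ ξ : A, F ξ = F' ξ := fun ξ => by simp [hF']
  have h2 := sum_subtype_eq (B := A) F'
  rw [sum_union hAST hdis F'] at h2
  rw [Finset.sum_congr rfl fun ξ _ => h1 ξ, h2]
  congr 1
  · refine Finset.sum_congr rfl fun χ _ => ?_
    rw [h1]
  · refine Finset.sum_congr rfl fun χ _ => ?_
    rw [h1]

/-- The sum of a function over the vertices. -/
theorem sum_vertices {e : ℕ} (σ : S ≃ Fin e) (f : Fin (e + 1) → ℂ) :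
    ∑ χ : S, f (σ χ).castSucc + f (Fin.last e) = ∑ j, f j := by
  rw [Fin.sum_univ_castSucc, Equiv.sum_comp σ (fun j => f j.castSucc)]

theorem sum_ind (e : ℕ) (i : Fin (e + 1)) : ∑ j : Fin (e + 1), (if i = j then (1 : ℂ) else 0) = 1 := by
  simp

theorem sum_sq_ind {e : ℕ} (he : 0 < e) (n : Fin (e + 1)) :
    ∑ i : Fin (e + 1), (((if i + 1 = n then (1 : ℤ) else 0) - (if i = n then 1 else 0) : ℤ) : ℝ) ^ 2 = 2 := by
  classical
  have hne : ∀ i : Fin (e + 1), i + 1 = n → i ≠ n := by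
    intro i h1 h2
    subst h2
    have h3 : (1 : Fin (e + 1)) = 0 := by simpa using h1
    rw [Fin.one_eq_zero_iff] at h3
    omega
  have h1 : ∀ i : Fin (e + 1), (((if i + 1 = n then (1 : ℤ) else 0) - (if i = n then 1 else 0) : ℤ) : ℝ) ^ 2 =
      (if i = n - 1 then 1 else 0) + (if i = n then 1 else 0) := by
    intro i
    have h2 : i + 1 = n ↔ i = n - 1 := ⟨fun h => by rw [← h]; simp, fun h => by rw [h]; simp⟩
    by_cases h3 : i + 1 = n
    · have h4 := hne i h3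
      have h5 := h2.mp h3
      rw [if_pos h3, if_neg h4, if_pos h5, if_neg h4]
      norm_num
    · have h5 : i ≠ n - 1 := fun h => h3 (h2.mpr h)
      rw [if_neg h3, if_neg h5]
      by_cases h4 : i = n
      · rw [if_pos h4, if_pos h4]
        norm_num
      · rw [if_neg h4, if_neg h4]
        norm_num
  rw [Finset.sum_congr rfl fun i _ => h1 i, Finset.sum_add_distrib]
  simp
  norm_num

/-- **The cycle family.** -/
theorem exists_family_of_shape (hM : IsPModular p M) (hA : IsPBlock M A) (hAST : A = S ∪ T) (hdis : Disjoint S T)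
    (hrank : blockRank p A = Fintype.card S) (he : 0 < Fintype.card S) (hδ₀ : δ₀ = 1 ∨ δ₀ = -1)
    (hδ : ∀ χ ∈ S, δ χ = 1 ∨ δ χ = -1)
    (hrel : ∀ ψ ∈ T, ∀ c : H, ¬ p ∣ orderOf c →
      (δ₀ : ℂ) * (ψ : H → ℂ) c + ∑ χ : S, (δ χ : ℂ) * ((χ : IrrCharacter H) : H → ℂ) c = 0)
    (hreg : ∀ ψ ∈ T, ∀ ψ' ∈ T, ∀ c : H, ¬ p ∣ orderOf c → (ψ : H → ℂ) c = (ψ' : H → ℂ) c)
    (hT : T.Nonempty) (r : ℕ) [NeZero r] :
    ∃ (e : ℕ) (v : Fin (e + 1) → A → ℂ),
      (∀ i ψ, v i ψ ∈ Zr r) ∧ (∀ i g, p ∣ orderOf g → Phi (v i) g = 0) ∧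
      (∑ i, ∑ ψ, nrm r (v i ψ) ≤ (Fintype.card A : ℝ) * (2 : ℕ)) ∧
      ∀ u : A → ℂ, (∀ g, p ∣ orderOf g → Phi u g = 0) → u ≠ 0 →
        0 < 2 ∧ 2 ≤ (Finset.univ.filter fun i => ∑ ψ, u ψ * conj (v i ψ) ≠ 0).card := by
  classical
  set e := Fintype.card S with he'
  let σ : S ≃ Fin e := Fintype.equivFin S
  let n : IrrCharacter H → Fin (e + 1) := fun ξ => if h : ξ ∈ S then (σ ⟨ξ, h⟩).castSucc else Fin.last e
  let c : IrrCharacter H → ℤ := fun ξ => if ξ ∈ S then δ ξ else δ₀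
  have hnS : ∀ χ : S, n χ = (σ χ).castSucc := by
    intro χ
    simp only [n, dif_pos χ.2]
  have hnT : ∀ ψ : T, n ψ = Fin.last e := by
    intro ψ
    simp only [n, dif_neg (Set.disjoint_right.mp hdis ψ.2)]
  have hcS : ∀ χ : S, c χ = δ χ := by
    intro χ
    simp only [c, if_pos χ.2]
  have hcT : ∀ ψ : T, c ψ = δ₀ := by
    intro ψ
    simp only [c, if_neg (Set.disjoint_right.mp hdis ψ.2)]
  have hc1 : ∀ ξ : A, (c ξ : ℝ) ^ 2 = 1 := by
    intro ξ
    have h1 : (ξ : IrrCharacter H) ∈ S ∪ T := (Set.ext_iff.mp hAST _).mp ξ.2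
    rcases h1 with h1 | h1
    · rw [hcS ⟨ξ, h1⟩]
      rcases hδ ξ h1 with h | h <;> simp [h]
    · rw [hcT ⟨ξ, h1⟩]
      rcases hδ₀ with h | h <;> simp [h]
  let vv : Fin (e + 1) → IrrCharacter H → ℤ := fun i ξ =>
    c ξ * ((if i + 1 = n ξ then 1 else 0) - (if i = n ξ then 1 else 0))
  refine ⟨e, fun i ξ => (vv i ξ : ℂ), fun i ψ => intCast_mem_Zr _, ?_, ?_, ?_⟩
  · intro i g hg
    simp only [Phi]
    rw [sum_A hAST hdis]
    set a : ℂ := δ₀ * ∑ ψ : T, ((ψ : IrrCharacter H) : H → ℂ) g with ha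
    set f : Fin (e + 1) → ℂ := fun j => (if i + 1 = j then 1 else 0) - (if i = j then 1 else 0) with hf
    have h1 : ∀ χ : S, (vv i χ : ℂ) * ((χ : IrrCharacter H) : H → ℂ) g = a * f (σ χ).castSucc := by
      intro χ
      have h2 := Q_vanish hM hA hAST hdis hrank hδ₀ hδ hrel χ g hg
      simp only [vv, hnS, hcS, hf]
      push_cast
      rw [← ha] at h2
      rw [← h2]
      ring
    have h2 : ∑ ψ : T, (vv i ψ : ℂ) * ((ψ : IrrCharacter H) : H → ℂ) g = a * f (Fin.last e) := by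
      simp only [vv, hnT, hcT, hf, ha]
      push_cast
      rw [Finset.mul_sum, Finset.sum_mul]
      refine Finset.sum_congr rfl fun ψ _ => ?_
      ring
    have h3 : ∑ j, f j = 0 := by
      simp only [hf, Finset.sum_sub_distrib, sum_ind, sub_self]
    change ∑ χ : S, (vv i χ : ℂ) * ((χ : IrrCharacter H) : H → ℂ) g + ∑ ψ : T, (vv i ψ : ℂ) * ((ψ : IrrCharacter H) : H → ℂ) g = 0
    rw [Finset.sum_congr rfl fun χ _ => h1 χ, h2, ← Finset.mul_sum, ← mul_add, sum_vertices, h3, mul_zero]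
  · simp only [nrm_int]
    rw [Finset.sum_comm]
    have h1 : ∀ ξ : A, ∑ i, ((vv i ξ : ℤ) : ℝ) ^ 2 = 2 := by
      intro ξ
      rw [← sum_sq_ind he (n ξ)]
      refine Finset.sum_congr rfl fun i _ => ?_
      simp only [vv]
      rw [Int.cast_mul, mul_pow, hc1 ξ, one_mul]
    rw [Finset.sum_congr rfl fun ξ _ => h1 ξ]
    simp
  · intro u hu hu0
    refine ⟨by norm_num, ?_⟩
    set τ : Fin (e + 1) → ℂ := fun j => ∑ ξ : A, u ξ * c ξ * (if j = n ξ then 1 else 0) with hτ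
    have hpair : ∀ i, ∑ ψ, u ψ * conj ((vv i ψ : ℤ) : ℂ) = τ (i + 1) - τ i := by
      intro i
      simp only [hτ, map_intCast, ← Finset.sum_sub_distrib]
      refine Finset.sum_congr rfl fun ξ _ => ?_
      simp only [vv]
      push_cast
      ring
    simp only [hpair]
    apply two_le_card_of_ne
    by_contra hcon
    push Not at hcon
    apply hu0
    -- the values of `τ`
    have hτS : ∀ χ : S, τ (σ χ).castSucc = u ⟨χ, mem_S hAST χ.2⟩ * δ χ := by
      intro χ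
      simp only [hτ]
      rw [sum_A hAST hdis]
      simp only [hnS, hnT, hcS, hcT]
      have h1 : ((σ χ).castSucc = Fin.last e) = False := by
        simp [Fin.castSucc_ne_last]
      simp only [h1, if_false, mul_zero, Finset.sum_const_zero, add_zero]
      rw [Finset.sum_eq_single χ]
      · simp
      · intro χ' _ hχ'
        have : (σ χ).castSucc ≠ (σ χ').castSucc := by
          intro h
          exact hχ' (σ.injective (Fin.castSucc_injective _ h)).symm
        rw [if_neg this, mul_zero]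
      · simp
    have hτT : τ (Fin.last e) = δ₀ * ∑ ψ : T, u ⟨ψ, mem_T hAST ψ.2⟩ := by
      simp only [hτ]
      rw [sum_A hAST hdis]
      simp only [hnS, hnT, hcS, hcT]
      have h1 : ∀ χ : S, (Fin.last e = (σ χ).castSucc) = False := fun χ => by
        simp [(Fin.castSucc_ne_last _).symm]
      simp only [h1, if_false, mul_zero, Finset.sum_const_zero, zero_add, if_true, mul_one]
      rw [Finset.mul_sum]
      refine Finset.sum_congr rfl fun ψ _ => ?_
      ring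
    -- orthogonality
    obtain ⟨ψ₀, hψ₀⟩ := hT
    have hψA : ∀ {ψ : IrrCharacter H}, ψ ∈ T → ψ ∈ A := fun h => mem_T hAST h
    have hχA : ∀ {ψ : IrrCharacter H}, ψ ∈ S → ψ ∈ A := fun h => mem_S hAST h
    have hi : ∀ ψ : T, u ⟨ψ, hψA ψ.2⟩ = u ⟨ψ₀, hψA hψ₀⟩ := by
      intro ψ
      have h1 : classInner (Phi u) (fun y => ((ψ : IrrCharacter H) : H → ℂ) y - (ψ₀ : H → ℂ) y) = 0 :=
        inner_eq_zero_of_supp hu fun y hy => by rw [hreg ψ ψ.2 ψ₀ hψ₀ y hy, sub_self]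
      have h2 : classInner (Phi u) (fun y => ((ψ : IrrCharacter H) : H → ℂ) y - (ψ₀ : H → ℂ) y) =
          classInner (Phi u) ((ψ : IrrCharacter H) : H → ℂ) - classInner (Phi u) (ψ₀ : H → ℂ) := by
        simp only [classInner_def, map_sub, mul_sub, Finset.sum_sub_distrib]
      rw [h2, inner_irr_left u ⟨ψ, hψA ψ.2⟩, inner_irr_left u ⟨ψ₀, hψA hψ₀⟩] at h1
      exact sub_eq_zero.mp h1
    have hii : (δ₀ : ℂ) * u ⟨ψ₀, hψA hψ₀⟩ + ∑ χ : S, (δ χ : ℂ) * u ⟨χ, hχA χ.2⟩ = 0 := by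
      have h1 : classInner (Phi u) (fun y => (δ₀ : ℂ) * (ψ₀ : H → ℂ) y + ∑ χ : S, (δ χ : ℂ) * ((χ : IrrCharacter H) : H → ℂ) y) = 0 :=
        inner_eq_zero_of_supp hu fun y hy => hrel ψ₀ hψ₀ y hy
      have h2 : classInner (Phi u) (fun y => (δ₀ : ℂ) * (ψ₀ : H → ℂ) y + ∑ χ : S, (δ χ : ℂ) * ((χ : IrrCharacter H) : H → ℂ) y) =
          (δ₀ : ℂ) * classInner (Phi u) (ψ₀ : H → ℂ) + ∑ χ : S, (δ χ : ℂ) * classInner (Phi u) ((χ : IrrCharacter H) : H → ℂ) := by
        simp only [classInner_def, map_add, map_mul, map_sum, map_intCast, mul_add, Finset.sum_add_distrib, Finset.mul_sum]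
        congr 1
        · refine Finset.sum_congr rfl fun y _ => ?_
          ring
        · rw [Finset.sum_comm]
          refine Finset.sum_congr rfl fun χ _ => ?_
          refine Finset.sum_congr rfl fun y _ => ?_
          ring
      rw [h2, inner_irr_left u ⟨ψ₀, hψA hψ₀⟩] at h1
      simp only [show ∀ χ : S, classInner (Phi u) ((χ : IrrCharacter H) : H → ℂ) = u ⟨χ, hχA χ.2⟩ from
        fun χ => inner_irr_left u ⟨χ, hχA χ.2⟩] at h1
      exact h1
    set t : ℂ := τ 0 with ht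
    set s : ℂ := u ⟨ψ₀, hψA hψ₀⟩ with hs
    have hS' : ∀ χ : S, (δ χ : ℂ) * u ⟨χ, hχA χ.2⟩ = t := by
      intro χ
      rw [← hcon (σ χ).castSucc, hτS]
      ring
    have hT' : t = (δ₀ : ℂ) * ((Fintype.card T : ℂ) * s) := by
      rw [← hcon (Fin.last e), hτT]
      congr 1
      rw [Finset.sum_congr rfl fun ψ _ => hi ψ]
      simp
    have hii' : (δ₀ : ℂ) * s + (Fintype.card S : ℂ) * t = 0 := by
      rw [Finset.sum_congr rfl fun χ _ => hS' χ] at hii
      simpa using hii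
    have ht0 : t = 0 := by
      have h1 : ((1 + Fintype.card T * Fintype.card S : ℕ) : ℂ) * t = 0 := by
        push_cast
        linear_combination hT' + (Fintype.card T : ℂ) * hii'
      have h2 : ((1 + Fintype.card T * Fintype.card S : ℕ) : ℂ) ≠ 0 := by
        exact_mod_cast (by omega : 1 + Fintype.card T * Fintype.card S ≠ 0)
      exact (mul_eq_zero.mp h1).resolve_left h2
    have hs0 : s = 0 := by
      rw [ht0, mul_zero, add_zero] at hii'
      have h1 : (δ₀ : ℂ) ≠ 0 := by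
        rcases hδ₀ with h | h <;> simp [h]
      exact (mul_eq_zero.mp hii').resolve_left h1
    funext ξ
    obtain ⟨ξ, hξ⟩ := ξ
    have hξ' := hξ
    rw [hAST] at hξ'
    rcases hξ' with h | h
    · have h1 := hS' ⟨ξ, h⟩
      rw [ht0] at h1
      have h2 : (δ ξ : ℂ) ≠ 0 := by
        rcases hδ ξ h with h | h <;> simp [h]
      exact (mul_eq_zero.mp h1).resolve_left h2
    · have h1 := hi ⟨ξ, h⟩
      rw [hs0] at h1
      exact h1

theorem finsum_mem_sub (S : Set (IrrCharacter H)) [Fintype S] (F : IrrCharacter H → ℂ) :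
    ∑ᶠ χ ∈ S, F χ = ∑ χ : S, F χ := by
  classical
  rw [Cfsg.Agent.Lib.Blocks.Rank1.finsum_mem_eq_sum_ite', sum_subtype_eq (B := S) F]

theorem add_le_of_mul {e m q : ℕ} (he : 0 < e) (hm : 0 < m) (h : q - 1 = e * m) (hq : 1 < q) : e + m ≤ q := by
  obtain ⟨e', rfl⟩ : ∃ e', e = e' + 1 := ⟨e - 1, by omega⟩
  obtain ⟨m', rfl⟩ : ∃ m', m = m' + 1 := ⟨m - 1, by omega⟩
  have h1 : q = (e' + 1) * (m' + 1) + 1 := by omega
  rw [h1]
  nlinarith [Nat.zero_le (e' * m')]

/-- **The family of a block with a nontrivial cyclic defect group.** -/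
theorem exists_family_cyclic (hM : IsPModular p M) (hA : IsPBlock M A) {Q : Subgroup H}
    (hQ : IsDefectGroup p M A Q) (hcyc : IsCyclic Q) (hQ1 : Q ≠ ⊥) (r : ℕ) [NeZero r] :
    ∃ (e : ℕ) (v : Fin (e + 1) → A → ℂ),
      (∀ i ψ, v i ψ ∈ Zr r) ∧ (∀ i g, p ∣ orderOf g → Phi (v i) g = 0) ∧
      (∑ i, ∑ ψ, nrm r (v i ψ) ≤ (Nat.card Q : ℝ) * (2 : ℕ)) ∧
      ∀ u : A → ℂ, (∀ g, p ∣ orderOf g → Phi u g = 0) → u ≠ 0 →
        0 < 2 ∧ 2 ≤ (Finset.univ.filter fun i => ∑ ψ, u ψ * conj (v i ψ) ≠ 0).card := by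
  classical
  have hpp : p.Prime := hp.out
  haveI := isPrime_of_pModular hM
  obtain ⟨c, hmax⟩ := Cfsg.Agent.Lib.BP.Nil4.exists_pair_of_defect hM hA hQ
  have hcard := Cfsg.Agent.Lib.Blocks.Inducing.card_eq_pow_blockDefect hM hA hQ
  obtain ⟨hrank, hcardA, -, -, S, T, hAST, hdis, hS, hT, hreg, δ, δ₀, hδ, hδ₀, hrel, -, -⟩ :=
    Cfsg.Agent.Lib.Dade.Main.main_structure hM hmax hQ1 hcyc hcard rfl
  set e := (Subgroup.centralizer (Q : Set H)).relIndex (Cfsg.Agent.Lib.BlockH.MaxPair.stabSub Q c) with he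
  have he0 : 0 < e := by
    rw [he, Subgroup.relIndex]
    exact Nat.pos_of_ne_zero Subgroup.index_ne_zero_of_finite
  set q := p ^ blockDefect p A with hq
  have hq1 : 1 < q := by
    rw [← hcard]
    by_contra hcon
    apply hQ1
    have h1 : Nat.card Q = 1 := by
      have := Nat.card_pos (α := Q)
      omega
    exact Subgroup.eq_bot_of_card_eq Q h1
  letI : Fintype S := Fintype.ofFinite _
  letI : Fintype T := Fintype.ofFinite _
  have hSc : Fintype.card S = e := by rw [← Nat.card_eq_fintype_card]; exact hS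
  have hTc : Fintype.card T = (q - 1) / e := by rw [← Nat.card_eq_fintype_card]; exact hT
  have hAc : Fintype.card A = e + (q - 1) / e := by
    rw [← Nat.card_eq_fintype_card]
    exact hcardA
  -- `e` divides `q - 1`
  have hdvd : e ∣ q - 1 := by
    obtain ⟨-, -, hdvd, -⟩ := Cfsg.Agent.Lib.Dade.Main.main_structure hM hmax hQ1 hcyc hcard rfl
    have h1 : p - 1 ∣ q - 1 := by
      rw [hq]
      exact Nat.sub_one_dvd_pow_sub_one _ _
    exact hdvd.trans h1
  obtain ⟨m, hm⟩ := hdvd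
  have hdiv : (q - 1) / e = m := by
    rw [hm]
    exact Nat.mul_div_cancel_left m he0
  have hm0 : 0 < m := by
    rcases Nat.eq_zero_or_pos m with h | h
    · subst h
      omega
    · exact h
  have hT0 : T.Nonempty := by
    have h1 : 0 < Fintype.card T := by rw [hTc, hdiv]; exact hm0
    obtain ⟨ψ⟩ := Fintype.card_pos_iff.mp h1
    exact ⟨ψ, ψ.2⟩
  have hAle : Fintype.card A ≤ Nat.card Q := by
    rw [hAc, hdiv, hcard]
    exact add_le_of_mul he0 hm0 hm hq1
  obtain ⟨e₁, v, h1, h2, h3, h4⟩ := exists_family_of_shape (δ := δ) (δ₀ := δ₀) hM hA hAST hdis (by rw [hrank, hSc])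
    (by rw [hSc]; exact he0) hδ₀ hδ
    (fun ψ hψ c hc => by
      have h5 := hrel ψ hψ c hc
      rw [finsum_mem_sub S (fun χ => (δ χ : ℂ) * (χ : H → ℂ) c)] at h5
      exact h5)
    hreg hT0 r
  refine ⟨e₁, v, h1, h2, h3.trans ?_, h4⟩
  have h5 : (Fintype.card A : ℝ) ≤ (Nat.card Q : ℝ) := by exact_mod_cast hAle
  gcongr

end Family

end Cfsg.Agent.Lib.AbR.Fam
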