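import Mathlib
import Cfsg.Agent.Lib.AbR.Fam
import Cfsg.Agent.Lib.Contrib.BF
import Cfsg.Agent.Lib.Contrib.NonVanish

/-!
# Blocks with an abelian defect group of rank two and three
-/

set_option autoImplicit false
set_option linter.unusedSectionVars false
set_option linter.style.haveILetI false

namespace Cfsg.Agent.Lib.AbR.Main

open Cfsg MonoidAlgebra
open Cfsg.Agent.Lib.Blocks.Local Cfsg.Agent.Lib.Blocks.Central Cfsg.Agent.Lib.Blocks.Quot
open Cfsg.Agent.Lib.Blocks.DomRank
open Cfsg.Agent.Lib.BlockH.Regular Cfsg.Agent.Lib.BlockP.Defect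
open Cfsg.Agent.Lib.Char.Ortho Cfsg.Agent.Lib.Char.Basic Cfsg.Agent.Lib.Char.GenLattice
open Cfsg.Agent.Lib.Contrib.Proj Cfsg.Agent.Lib.Contrib.Cyc Cfsg.Agent.Lib.Contrib.Family
open Cfsg.Agent.Lib.Contrib.Sec Cfsg.Agent.Lib.Contrib.Dom
open Cfsg.Agent.Lib.Contrib.D1Main Cfsg.Agent.Lib.Contrib.D1Loc
open Cfsg.Agent.Lib.Char.Galois
open scoped ComplexConjugate

universe u

section Trace

variable {r : ℕ} [NeZero r] {ι : Type*} [Fintype ι] {m : ι → ι → ℂ}

theorem sig_diag_eq (hZ : ∀ i j, m i j ∈ Zr r) (hconj : ∀ i j, m j i = conj (m i j)) {P : ℕ} (hP : 0 < P) (i : ι)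
    (hmul : ∑ j, m i j * m j i = P * m i i) (σ : Kn r →ₐ[ℚ] ℂ) :
    sig σ (m i i) = (((∑ j, ‖sig σ (m i j)‖ ^ 2) / P : ℝ) : ℂ) := by
  have hr : r ≠ 0 := NeZero.ne r
  have hP' : (P : ℂ) ≠ 0 := by exact_mod_cast hP.ne'
  have h1 : sig σ (∑ j, m i j * m j i) = sig σ (P * m i i) := by rw [hmul]
  rw [sig_sum σ _ (fun j _ => by
      rw [hconj i j]
      exact mul_mem (mem_Kn_of_mem_Zr hr (hZ i j)) (mem_Kn_of_mem_Zr hr (conj_mem_Zr hr (hZ i j)))),
    sig_mul σ (natCast_mem _ P) (mem_Kn_of_mem_Zr hr (hZ i i)), sig_natCast] at h1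
  have h2 : ∀ j, sig σ (m i j * m j i) = ((‖sig σ (m i j)‖ ^ 2 : ℝ) : ℂ) := by
    intro j
    rw [hconj i j, sig_mul σ (mem_Kn_of_mem_Zr hr (hZ i j)) (mem_Kn_of_mem_Zr hr (conj_mem_Zr hr (hZ i j))),
      sig_conj σ hr (hZ i j), Complex.mul_conj, Complex.normSq_eq_norm_sq]
  simp only [h2] at h1
  push_cast at h1 ⊢
  field_simp
  linear_combination -h1

/-- The Galois average of a nonzero diagonal entry is at least one. -/
theorem avg_diag (hZ : ∀ i j, m i j ∈ Zr r) (hconj : ∀ i j, m j i = conj (m i j)) {P : ℕ} (hP : 0 < P) (i : ι)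
    (hmul : ∑ j, m i j * m j i = P * m i i) :
    0 ≤ (avg r (m i i)).re ∧ (m i i ≠ 0 → 1 ≤ (avg r (m i i)).re) := by
  have hr : r ≠ 0 := NeZero.ne r
  set a : (Kn r →ₐ[ℚ] ℂ) → ℝ := fun σ => (∑ j, ‖sig σ (m i j)‖ ^ 2) / P with ha
  have ha0 : ∀ σ, 0 ≤ a σ := fun σ => by
    apply div_nonneg (Finset.sum_nonneg fun _ _ => by positivity) (by positivity)
  have h1 : ∀ σ, sig σ (m i i) = (a σ : ℂ) := fun σ => sig_diag_eq hZ hconj hP i hmul σ
  have hc : (0 : ℝ) < Fintype.card (Kn r →ₐ[ℚ] ℂ) := by exact_mod_cast card_alg_pos r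
  have h2 : avg r (m i i) = (((Fintype.card (Kn r →ₐ[ℚ] ℂ) : ℝ)⁻¹ * ∑ σ, a σ : ℝ) : ℂ) := by
    simp only [avg, h1]
    push_cast
    rfl
  rw [h2, Complex.ofReal_re]
  refine ⟨mul_nonneg (by positivity) (Finset.sum_nonneg fun σ _ => ha0 σ), fun h0 => ?_⟩
  have hK := mem_Kn_of_mem_Zr hr (hZ i i)
  have h3 := one_le_prod_norm (⟨m i i, hK⟩ : Kn r) (isIntegral_subtype hK (isIntegral_of_mem_Zr hr (hZ i i)))
    (fun h => h0 (congrArg Subtype.val h))
  have h4 : ∀ σ : Kn r →ₐ[ℚ] ℂ, ‖σ ⟨m i i, hK⟩‖ = a σ := by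
    intro σ
    rw [← sig_of_mem σ hK, h1, Complex.norm_real, Real.norm_eq_abs, abs_of_nonneg (ha0 σ)]
  simp only [h4] at h3
  have h5 := card_le_sum_of_one_le_prod Finset.univ a (fun σ _ => ha0 σ) h3
  rw [Finset.card_univ] at h5
  rw [inv_mul_eq_div, le_div_iff₀ hc, one_mul]
  exact h5

/-- The number of nonzero diagonal entries is at most the trace. -/
theorem card_filter_le_trace (hZ : ∀ i j, m i j ∈ Zr r) (hconj : ∀ i j, m j i = conj (m i j)) {P T : ℕ} (hP : 0 < P)
    (hmul : ∀ i, ∑ j, m i j * m j i = P * m i i) (htr : ∑ i, m i i = T) :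
    ((Finset.univ.filter fun i => m i i ≠ 0).card : ℝ) ≤ T := by
  classical
  have hr : r ≠ 0 := NeZero.ne r
  have h1 : ∑ i, (avg r (m i i)).re = T := by
    have h2 : avg r (∑ i, m i i) = ∑ i, avg r (m i i) := avg_sum _ fun i _ => mem_Kn_of_mem_Zr hr (hZ i i)
    rw [htr, avg_natCast] at h2
    have h3 := congrArg Complex.re h2
    rw [Complex.re_sum] at h3
    rw [← h3]
    simp
  rw [← h1]
  calc ((Finset.univ.filter fun i => m i i ≠ 0).card : ℝ) = ∑ i ∈ Finset.univ.filter (fun i => m i i ≠ 0), (1 : ℝ) := by simp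
    _ ≤ ∑ i ∈ Finset.univ.filter (fun i => m i i ≠ 0), (avg r (m i i)).re :=
        Finset.sum_le_sum fun i hi => (avg_diag hZ hconj hP i (hmul i)).2 (Finset.mem_filter.mp hi).2
    _ ≤ ∑ i, (avg r (m i i)).re :=
        Finset.sum_le_sum_of_subset_of_nonneg (Finset.filter_subset _ _)
          fun i _ _ => (avg_diag hZ hconj hP i (hmul i)).1

end Trace

section Major

variable {G : Type u} [Group G] [Fintype G] [Fintype (IrrCharacter G)] {p : ℕ} {M : Ideal AlgInt}
  [hp : Fact p.Prime] {x : G}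
  [Fintype (Subgroup.centralizer ({x} : Set G))] [Fintype (IrrCharacter (Subgroup.centralizer ({x} : Set G)))]

theorem filter_PP_eq_univ (hM : IsPModular p M) {k : ℕ} (hk : orderOf x = p ^ k)
    {B : Set (IrrCharacter G)} (hB : IsPBlock M B) [Fintype B]
    {b : Set (IrrCharacter (Subgroup.centralizer ({x} : Set G)))}
    (hb : IsInducedBlock M (Subgroup.centralizer ({x} : Set G)) b B)
    (hq : blockDefect p b = blockDefect p B) [DecidablePred fun χ : B => PP p b (vt x (χ : IrrCharacter G)) ≠ 0] :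
    (Finset.univ.filter fun χ : B => PP p b (vt x (χ : IrrCharacter G)) ≠ 0) = Finset.univ := by
  haveI := isPrime_of_pModular hM
  apply Finset.filter_true_of_mem
  intro χ _
  exact Cfsg.Agent.Lib.Contrib.NonVanish.PP_ne_zero hM hk hB hb hq χ.2

/-- **A major section bounds the number of characters by the rank.** -/
theorem card_le_mul_rank (hM : IsPModular p M) {k : ℕ} (hk : orderOf x = p ^ k)
    {B : Set (IrrCharacter G)} (hB : IsPBlock M B) [Fintype B]
    {b : Set (IrrCharacter (Subgroup.centralizer ({x} : Set G)))}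
    (hb : IsInducedBlock M (Subgroup.centralizer ({x} : Set G)) b B)
    (hq : blockDefect p b = blockDefect p B) :
    Fintype.card B ≤ p ^ blockDefect p b * blockRank p b := by
  classical
  haveI := isPrime_of_pModular hM
  have hpp : p.Prime := hp.out
  haveI : NeZero (p ^ k) := ⟨pow_ne_zero _ hpp.ne_zero⟩
  obtain ⟨m, hdef, hZ, hconj, hmul, htr, -, -⟩ := exists_matrix_def hM hk hB hb
  have h1 := card_filter_le_trace hZ hconj (pow_pos hpp.pos _) hmul htr
  have h2 : (Finset.univ.filter fun i : B => m i i ≠ 0) = Finset.univ := by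
    apply Finset.filter_true_of_mem
    intro χ _
    rw [hdef, mm]
    refine mul_ne_zero (by exact_mod_cast (pow_pos hpp.pos _).ne') ?_
    rw [Ne, classInner_self_eq_zero_iff]
    exact Cfsg.Agent.Lib.Contrib.NonVanish.PP_ne_zero hM hk hB hb hq χ.2
  rw [h2, Finset.card_univ] at h1
  exact_mod_cast h1

end Major

section Red

open Cfsg.Agent.Lib.BP.StarDefs Cfsg.Agent.Lib.BP.Nil1 Cfsg.Agent.Lib.BP.Star2 Cfsg.Agent.Lib.Star.Wat3
open Cfsg.Agent.Lib.BlockH.MaxPair

variable {G : Type u} [Group G] [Fintype G] {p : ℕ} {M : Ideal AlgInt} [hp : Fact p.Prime]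

/-- The block `b` of the centralizer of `z` on which the abelian defect group survives. -/
theorem exists_b (hM : IsPModular p M) {B : Set (IrrCharacter G)} (hB : IsPBlock M B) {D : Subgroup G}
    (hD : IsDefectGroup p M B D) (hab : ∀ x ∈ D, ∀ y ∈ D, x * y = y * x) {z : G} (hz : z ∈ D) :
    ∃ b : Set (IrrCharacter (KK z)), IsInducedBlock M (KK z) b B ∧ blockDefect p b = blockDefect p B ∧
      IsDefectGroup p M b (D.subgroupOf (KK z)) := by
  classical
  haveI := isPrime_of_pModular hM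
  obtain ⟨e, hmax⟩ := Cfsg.Agent.Lib.BP.Nil4.exists_pair_of_defect hM hB hD
  obtain ⟨hb, hu⟩ := bb_spec hM hmax hz
  have hm := isMaximal_down hM hmax hab hz hu
  have hd := isDefectGroup_of_isMaximal hM hm
  have hq := blockDefect_eq hM hmax hab hz hu
  have hi := induced_of_under hM hmax hu
  have key : ∀ (C : Subgroup G), C = cZ z → ∀ (f : Set (IrrCharacter C)), IsInducedBlock M C f B →
      blockDefect p f = blockDefect p B → IsDefectGroup p M f (D.subgroupOf C) →
      ∃ b : Set (IrrCharacter (KK z)), IsInducedBlock M (KK z) b B ∧ blockDefect p b = blockDefect p B ∧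
        IsDefectGroup p M b (D.subgroupOf (KK z)) := by
    intro C hC
    have hC' : C = KK z := hC.trans (cZ_eq z)
    subst hC'
    intro f h1 h2 h3
    exact ⟨f, h1, h2, h3⟩
  exact key _ rfl _ hi hq hd

/-- The quotient of the centralizer by `z`, with the kernel explicit. -/
theorem exists_quot' {z : G} {k : ℕ} (hk : orderOf z = p ^ k) :
    ∃ (X : Type u) (_ : Group X) (_ : Fintype X) (_ : Fintype (IrrCharacter X)) (π : KK z →* X)
      (_ : Function.Surjective π), IsPGroup p π.ker ∧ (∀ u ∈ π.ker, ∀ c : KK z, Commute u c) ∧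
        Nat.card π.ker = p ^ k ∧ π.ker = Subgroup.zpowers (wK z) := by
  classical
  set Z := Subgroup.zpowers (wK z) with hZ
  have hZc : ∀ u ∈ Z, ∀ c : KK z, Commute u c := by
    intro u hu c
    obtain ⟨i, rfl⟩ := hu
    have : Commute (wK z) c := Subtype.ext (Subgroup.mem_centralizer_singleton_iff.mp c.2).symm
    exact this.zpow_left i
  haveI hZn : Z.Normal := ⟨fun n hn g => by
    have : g * n * g⁻¹ = n := by
      have h := (hZc n hn g).eq
      rw [← h, mul_inv_cancel_right]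
    rw [this]
    exact hn⟩
  letI : Fintype (KK z) := Fintype.ofFinite _
  letI : Fintype (KK z ⧸ Z) := Fintype.ofFinite _
  haveI := finite_irrCharacter (G := KK z ⧸ Z)
  have hkerZ : (QuotientGroup.mk' Z).ker = Z := QuotientGroup.ker_mk' Z
  have hcard : Nat.card Z = p ^ k := by
    rw [hZ, Nat.card_zpowers, ← hk]
    simp [wK, ← Subgroup.orderOf_coe]
  refine ⟨KK z ⧸ Z, inferInstance, inferInstance, Fintype.ofFinite _, QuotientGroup.mk' Z,
    QuotientGroup.mk'_surjective Z, ?_, ?_, ?_, hkerZ⟩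
  · rw [hkerZ]
    exact IsPGroup.of_card hcard
  · intro u hu c
    rw [hkerZ] at hu
    exact hZc u hu c
  · rw [hkerZ, hcard]

/-- **The reduction.** -/
theorem exists_reduction (hM : IsPModular p M) {B : Set (IrrCharacter G)} (hB : IsPBlock M B) {D : Subgroup G}
    (hD : IsDefectGroup p M B D) (hab : IsMulCommutative D) (z : D) {k : ℕ} (hk : orderOf (z : G) = p ^ k) :
    ∃ (X : Type u) (_ : Group X) (_ : Fintype X) (_ : Fintype (IrrCharacter X)) (π : KK (z : G) →* X)
      (hπ : Function.Surjective π) (b : Set (IrrCharacter (KK (z : G)))) (A : Set (IrrCharacter X)) (π' : D →* X),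
      IsPGroup p π.ker ∧ (∀ u ∈ π.ker, ∀ c : KK (z : G), Commute u c) ∧ Nat.card π.ker = p ^ k ∧
      IsInducedBlock M (KK (z : G)) b B ∧ blockDefect p b = blockDefect p B ∧ IsPBlock M A ∧
      (∀ ψ, ψ ∈ A ↔ inflI π hπ ψ ∈ b) ∧ IsDefectGroup p M A π'.range ∧ π'.ker = Subgroup.zpowers z := by
  classical
  haveI := isPrime_of_pModular hM
  have hab' : ∀ x ∈ D, ∀ y ∈ D, x * y = y * x := by
    intro x hx y hy
    have := IsMulCommutative.is_comm.comm (⟨x, hx⟩ : D) ⟨y, hy⟩
    exact congrArg Subtype.val this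
  obtain ⟨b, hb, hq, hdb⟩ := exists_b hM hB hD hab' z.2
  letI : Fintype (KK (z : G)) := Fintype.ofFinite _
  haveI := finite_irrCharacter (G := KK (z : G))
  letI : Fintype (IrrCharacter (KK (z : G))) := Fintype.ofFinite _
  obtain ⟨X, iG, iF, iI, π, hπ, hker, hcen, hK, hkerZ⟩ := exists_quot' hk
  obtain ⟨A, hAb, hA⟩ := exists_dominated π hπ hker hcen hM hb.1
  obtain ⟨Bb, hBb, hBbA, hdef⟩ := exists_block_map π hπ hM hker hb.1
  have hBA : Bb = A := by
    obtain ⟨ψ, hψ⟩ := isPBlock_nonempty hBb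
    rw [isPBlock_eq_blockOf hBb hψ, isPBlock_eq_blockOf hAb ((hA ψ).mpr (hBbA ψ hψ))]
  subst hBA
  have hle : D ≤ KK (z : G) := by
    intro x hx
    rw [Subgroup.mem_centralizer_singleton_iff]
    exact hab' x hx z z.2
  refine ⟨X, iG, iF, iI, π, hπ, b, Bb, π.comp (Subgroup.inclusion hle), hker, hcen, hK, hb, hq, hAb, hA, ?_, ?_⟩
  · have h1 : (π.comp (Subgroup.inclusion hle)).range = (D.subgroupOf (KK (z : G))).map π := by
      ext y
      constructor
      · rintro ⟨x, rfl⟩
        exact ⟨Subgroup.inclusion hle x, x.2, rfl⟩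
      · rintro ⟨x, hx, rfl⟩
        exact ⟨⟨x, hx⟩, rfl⟩
    rw [h1, hdef]
    exact ⟨_, hdb, rfl⟩
  · ext x
    rw [MonoidHom.mem_ker, MonoidHom.comp_apply, ← MonoidHom.mem_ker, hkerZ]
    constructor
    · rintro ⟨n, hn⟩
      refine ⟨n, Subtype.ext ?_⟩
      have := congrArg Subtype.val hn
      simpa [wK] using this
    · rintro ⟨n, hn⟩
      refine ⟨n, Subtype.ext ?_⟩
      have := congrArg Subtype.val hn
      simpa [wK] using this

end Red

section GroupTheory

theorem card_eq_of_ker {D X : Type*} [Group D] [Group X] [Finite D] (f : D →* X) (z : D)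
    (h : f.ker = Subgroup.zpowers z) : Nat.card D = orderOf z * Nat.card f.range := by
  have h1 := f.ker.card_mul_index
  rw [Subgroup.index_ker, h, Nat.card_zpowers] at h1
  exact h1.symm

theorem card_le_of_gen3 {D : Type*} [Group D] [Finite D] (hc : ∀ x y : D, x * y = y * x) (a b c : D)
    (h : Subgroup.closure ({a, b, c} : Set D) = ⊤) : Nat.card D ≤ orderOf a * orderOf b * orderOf c := by
  classical
  letI : CommGroup D := { (inferInstance : Group D) with mul_comm := hc }
  set f : Subgroup.zpowers a × (Subgroup.zpowers b × Subgroup.zpowers c) →* D :=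
    (Subgroup.zpowers a).subtype.coprod ((Subgroup.zpowers b).subtype.coprod (Subgroup.zpowers c).subtype) with hf
  have hsurj : Function.Surjective f := by
    rw [← MonoidHom.range_eq_top, eq_top_iff, ← h, Subgroup.closure_le]
    rintro x (rfl | rfl | rfl)
    · exact ⟨(⟨x, Subgroup.mem_zpowers x⟩, 1), by simp [hf]⟩
    · exact ⟨(1, (⟨x, Subgroup.mem_zpowers x⟩, 1)), by simp [hf]⟩
    · exact ⟨(1, (1, ⟨x, Subgroup.mem_zpowers x⟩)), by simp [hf]⟩
  have h1 := Nat.card_le_card_of_surjective f hsurj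
  simp only [Nat.card_prod, Nat.card_zpowers] at h1
  rw [mul_assoc]
  exact h1

/-- The images of the other generators generate the range. -/
theorem range_closure_pair {D X : Type*} [Group D] [Group X] (f : D →* X) {a b c : D} (ha : f a = 1)
    (h : Subgroup.closure ({a, b, c} : Set D) = ⊤) :
    Subgroup.closure ({f.rangeRestrict b, f.rangeRestrict c} : Set f.range) = ⊤ := by
  rw [eq_top_iff]
  have h1 : (⊤ : Subgroup f.range) = (Subgroup.closure ({a, b, c} : Set D)).map f.rangeRestrict := by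
    rw [h, ← MonoidHom.range_eq_map]
    exact (MonoidHom.range_eq_top.mpr f.rangeRestrict_surjective).symm
  rw [h1, MonoidHom.map_closure, Subgroup.closure_le]
  rintro _ ⟨x, (rfl | rfl | rfl), rfl⟩
  · have : f.rangeRestrict x = 1 := Subtype.ext ha
    rw [this]
    exact one_mem _
  · exact Subgroup.subset_closure (Or.inl rfl)
  · exact Subgroup.subset_closure (Or.inr rfl)

theorem range_cyclic {D X : Type*} [Group D] [Group X] (f : D →* X) {a b : D} (ha : f a = 1)
    (h : Subgroup.closure ({a, b} : Set D) = ⊤) : IsCyclic f.range := by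
  have h1 : (⊤ : Subgroup f.range) = (Subgroup.closure ({a, b} : Set D)).map f.rangeRestrict := by
    rw [h, ← MonoidHom.range_eq_map]
    exact (MonoidHom.range_eq_top.mpr f.rangeRestrict_surjective).symm
  rw [isCyclic_iff_exists_zpowers_eq_top]
  refine ⟨f.rangeRestrict b, ?_⟩
  rw [eq_top_iff, h1, MonoidHom.map_closure, Subgroup.closure_le]
  rintro _ ⟨x, (rfl | rfl), rfl⟩
  · have : f.rangeRestrict x = 1 := Subtype.ext ha
    rw [this]
    exact one_mem _
  · exact Subgroup.mem_zpowers _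

end GroupTheory

section Final

variable {p : ℕ} {M : Ideal AlgInt} [hp : Fact p.Prime]

/-- **The case of two generators.** -/
theorem card_le_two_gen (hM : IsPModular p M) {G : Type u} [Group G] [Finite G] {B : Set (IrrCharacter G)}
    (hB : IsPBlock M B) {D : Subgroup G} (hD : IsDefectGroup p M B D) (hab : IsMulCommutative D) (a b : D)
    (hgen : Subgroup.closure ({a, b} : Set D) = ⊤) : Nat.card B ≤ Nat.card D := by
  classical
  cases nonempty_fintype G
  haveI := finite_irrCharacter (G := G)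
  letI : Fintype (IrrCharacter G) := Fintype.ofFinite _
  letI : Fintype B := Fintype.ofFinite _
  haveI := isPrime_of_pModular hM
  have hpp : p.Prime := hp.out
  have hDp : IsPGroup p D := Cfsg.Agent.Lib.Blocks.Defect2.isDefectGroup_isPGroup hD
  obtain ⟨k, hk⟩ : ∃ k, orderOf a = p ^ k := IsPGroup.iff_orderOf.mp hDp a
  have hk' : orderOf (a : G) = p ^ k := by rw [Subgroup.orderOf_coe, hk]
  letI : Fintype (KK (a : G)) := Fintype.ofFinite _
  haveI := finite_irrCharacter (G := KK (a : G))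
  letI : Fintype (IrrCharacter (KK (a : G))) := Fintype.ofFinite _
  obtain ⟨X, iG, iF, iI, π, hπ, c, A, π', hker, hcen, hK, hc, hq, hAb, hA, hQ, hkerπ⟩ := exists_reduction hM hB hD hab a hk'
  letI : Fintype A := Fintype.ofFinite _
  haveI : NeZero (p ^ k) := ⟨pow_ne_zero _ hpp.ne_zero⟩
  have ha1 : π' a = 1 := by
    rw [← MonoidHom.mem_ker, hkerπ]
    exact Subgroup.mem_zpowers a
  have hcyc := range_cyclic π' ha1 hgen
  have hcard := card_eq_of_ker π' a hkerπ
  rw [hk] at hcard
  have hgoal : ∀ κ : ℝ, ((Fintype.card B : ℕ) : ℝ) ≤ (p ^ k : ℕ) * κ → κ ≤ Nat.card π'.range → Nat.card B ≤ Nat.card D := by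
    intro κ h1 h2
    rw [Nat.card_eq_fintype_card]
    have h3 : ((Fintype.card B : ℕ) : ℝ) ≤ ((Nat.card D : ℕ) : ℝ) := by
      rw [hcard]
      push_cast
      refine h1.trans ?_
      push_cast
      gcongr
    exact_mod_cast h3
  by_cases hQ1 : π'.range = ⊥
  · have hd0 : blockDefect p A = 0 := by
      have h1 := Cfsg.Agent.Lib.Blocks.Inducing.card_eq_pow_blockDefect hM hAb hQ
      rw [hQ1, Subgroup.card_bot] at h1
      by_contra h2
      have h3 : 1 < p ^ blockDefect p A := Nat.one_lt_pow h2 hpp.one_lt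
      omega
    obtain ⟨ι, hι, v, N, hv, hs, hn, hc'⟩ := exists_family_d0 hM hAb hd0 (r := p ^ k)
    have h1 := card_le_of_family π hπ hker hcen hM hk' hK hB hc hA v N (κ := 1) zero_le_one hv hs hn hc'
    rw [filter_PP_eq_univ hM hk' hB hc hq, Finset.card_univ] at h1
    refine hgoal 1 h1 ?_
    rw [hQ1, Subgroup.card_bot]
    simp
  · obtain ⟨e, v, hv, hs, hn, hc'⟩ := Cfsg.Agent.Lib.AbR.Fam.exists_family_cyclic hM hAb hQ hcyc hQ1 (p ^ k)
    have h1 := card_le_of_family π hπ hker hcen hM hk' hK hB hc hA v 2 (κ := Nat.card π'.range) (Nat.cast_nonneg _) hv hs hn hc'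
    rw [filter_PP_eq_univ hM hk' hB hc hq, Finset.card_univ] at h1
    exact hgoal _ h1 le_rfl

/-- **The case of three generators.** -/
theorem card_cube_le (hM : IsPModular p M) {G : Type u} [Group G] [Finite G] {B : Set (IrrCharacter G)}
    (hB : IsPBlock M B) {D : Subgroup G} (hD : IsDefectGroup p M B D) (hab : IsMulCommutative D) (a b c : D)
    (hgen : Subgroup.closure ({a, b, c} : Set D) = ⊤) (hba : orderOf b ≤ orderOf a) (hca : orderOf c ≤ orderOf a) :
    Nat.card B ^ 3 ≤ Nat.card D ^ 5 := by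
  classical
  cases nonempty_fintype G
  haveI := finite_irrCharacter (G := G)
  letI : Fintype (IrrCharacter G) := Fintype.ofFinite _
  letI : Fintype B := Fintype.ofFinite _
  haveI := isPrime_of_pModular hM
  have hpp : p.Prime := hp.out
  have hDp : IsPGroup p D := Cfsg.Agent.Lib.Blocks.Defect2.isDefectGroup_isPGroup hD
  obtain ⟨k, hk⟩ : ∃ k, orderOf a = p ^ k := IsPGroup.iff_orderOf.mp hDp a
  have hk' : orderOf (a : G) = p ^ k := by rw [Subgroup.orderOf_coe, hk]
  letI : Fintype (KK (a : G)) := Fintype.ofFinite _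
  haveI := finite_irrCharacter (G := KK (a : G))
  letI : Fintype (IrrCharacter (KK (a : G))) := Fintype.ofFinite _
  obtain ⟨X, iG, iF, iI, π, hπ, d, A, π', hker, hcen, hK, hd, hq, hAb, hA, hQ, hkerπ⟩ := exists_reduction hM hB hD hab a hk'
  letI : Fintype A := Fintype.ofFinite _
  have ha1 : π' a = 1 := by
    rw [← MonoidHom.mem_ker, hkerπ]
    exact Subgroup.mem_zpowers a
  have hcard := card_eq_of_ker π' a hkerπ
  have hcomm : ∀ x y : D, x * y = y * x := fun x y => IsMulCommutative.is_comm.comm x y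
  have hQab : IsMulCommutative π'.range := ⟨⟨by
    rintro ⟨_, x, rfl⟩ ⟨_, y, rfl⟩
    apply Subtype.ext
    change π' x * π' y = π' y * π' x
    rw [← map_mul, ← map_mul, hcomm]⟩⟩
  have hAle := card_le_two_gen hM hAb hQ hQab _ _ (range_closure_pair π' ha1 hgen)
  have hmaj := card_le_mul_rank hM hk' hB hd hq
  have hrk := blockRank_le π hπ hker hcen hM hd.1 hA
  have hDc := Cfsg.Agent.Lib.Blocks.Inducing.card_eq_pow_blockDefect hM hB hD
  rw [hq, ← hDc] at hmaj
  rw [Nat.card_eq_fintype_card (α := A)] at hAle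
  have h1 : Nat.card B ≤ Nat.card D * Nat.card π'.range := by
    rw [Nat.card_eq_fintype_card]
    exact hmaj.trans (Nat.mul_le_mul_left _ (hrk.trans hAle))
  have h2 := card_le_of_gen3 hcomm a b c hgen
  set s := orderOf a with hs
  set n := Nat.card D with hn
  set q := Nat.card π'.range with hq'
  have hn0 : 0 < n := Nat.card_pos
  have h3 : n ≤ s ^ 3 := by
    calc n ≤ s * orderOf b * orderOf c := h2
      _ ≤ s * s * s := by gcongr
      _ = s ^ 3 := by ring
  have h4 : Nat.card B * s ≤ n ^ 2 := by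
    calc Nat.card B * s ≤ n * q * s := Nat.mul_le_mul_right _ h1
      _ = n * (s * q) := by ring
      _ = n ^ 2 := by rw [← hcard]; ring
  have h5 : Nat.card B ^ 3 * n ≤ n ^ 6 := by
    calc Nat.card B ^ 3 * n ≤ Nat.card B ^ 3 * s ^ 3 := Nat.mul_le_mul_left _ h3
      _ = (Nat.card B * s) ^ 3 := by ring
      _ ≤ (n ^ 2) ^ 3 := Nat.pow_le_pow_left h4 3
      _ = n ^ 6 := by ring
  have h6 : n ^ 6 = n ^ 5 * n := by ring
  rw [h6] at h5
  exact Nat.le_of_mul_le_mul_right h5 hn0

end Final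

end Cfsg.Agent.Lib.AbR.Main
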